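import Mathlib
import Cfsg.Agent.Lib.LocEven.Amalgam
import Cfsg.Agent.Lib.LocStruct.QuadPair

/-! The subgroups `V_δ^{(n)}` of a rank-two amalgam. -/

set_option autoImplicit false

namespace H69

open Subgroup Cfsg MulAction
open scoped commutatorElement Pointwise

variable {X : Type*} [Group X] {p : ℕ} {M₁ M₂ : Subgroup X}

theorem Z_le_vIter {n : ℕ} {δ μ : CosetVertex M₁ M₂} (h : (cosetGraph M₁ M₂).dist δ μ ≤ n) :
    vertexZ p μ ≤ vertexVIter p M₁ M₂ n δ :=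
  le_iSup (fun μ : {μ : CosetVertex M₁ M₂ // (cosetGraph M₁ M₂).dist δ μ ≤ n} =>
    vertexZ p (μ : CosetVertex M₁ M₂)) ⟨μ, h⟩

theorem vIter_le {n : ℕ} {δ : CosetVertex M₁ M₂} {W : Subgroup X}
    (h : ∀ μ, (cosetGraph M₁ M₂).dist δ μ ≤ n → vertexZ p μ ≤ W) : vertexVIter p M₁ M₂ n δ ≤ W :=
  iSup_le fun μ => h μ.1 μ.2

theorem vIter_smul_le (n : ℕ) (g : X) (δ : CosetVertex M₁ M₂) :
    vertexVIter p M₁ M₂ n (g • δ) ≤ (vertexVIter p M₁ M₂ n δ) ^ᶜ g := by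
  refine vIter_le fun μ hμ => ?_
  have e : μ = g • (g⁻¹ • μ) := by simp
  rw [e, H68.dist_smul] at hμ
  rw [e, H68.vertexZ_smul]
  exact cj_mono g (Z_le_vIter hμ)

theorem stabilizer_le_normalizer_vIter (n : ℕ) (δ : CosetVertex M₁ M₂) :
    stabilizer X δ ≤ 𝐍(vertexVIter p M₁ M₂ n δ) := by
  refine le_normalizer_of_cj_le fun g hg => ?_
  rw [cj_le_iff]
  have := vIter_smul_le (p := p) n g⁻¹ δ
  rwa [mem_stabilizer_iff.1 (inv_mem hg)] at this

theorem vIter_le_succ (hc : (cosetGraph M₁ M₂).Connected) {n : ℕ} {δ μ : CosetVertex M₁ M₂}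
    (h : (cosetGraph M₁ M₂).Adj δ μ) : vertexVIter p M₁ M₂ n μ ≤ vertexVIter p M₁ M₂ (n + 1) δ := by
  refine vIter_le fun κ hκ => Z_le_vIter ?_
  have h1 := hc.dist_triangle (u := δ) (v := μ) (w := κ)
  rw [SimpleGraph.dist_eq_one_iff_adj.2 h] at h1
  omega

variable [Fact p.Prime]

theorem res_sup_of_finite {L T : Subgroup X} [Finite L] (hT : H68.SylowIn p T L) :
    𝐑(p, L) ⊔ T = L := by
  have := congrArg (Subgroup.map L.subtype) (H4.pResidual_sup_sylow hT.toSylow)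
  rwa [Subgroup.map_sup, hT.map_toSylow, ← MonoidHom.range_eq_map, range_subtype] at this

theorem le_of_le_sup_commutator_finite {W V Q : Subgroup X} [Finite Q] (hQ : IsPGroup p Q)
    (hWV : W ≤ V) (hVQ : V ≤ Q) (hV : Q ≤ 𝐍(V)) (hW : Q ≤ 𝐍(W)) (h : V ≤ W ⊔ ⁅V, Q⁆) : V ≤ W := by
  have h1 : V.subgroupOf Q ≤ W.subgroupOf Q := by
    refine le_of_le_sup_commutator (T := ⊤) (hQ.to_subgroup _) (hQ.to_subgroup _)
      (normal_iff_top_le_normalizer.1 ((normal_subgroupOf_iff_le_normalizer hVQ).2 hV))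
      (comap_mono hWV) (normal_iff_top_le_normalizer.1
        ((normal_subgroupOf_iff_le_normalizer (hWV.trans hVQ)).2 hW)) ?_
    rw [← map_le_map_iff_of_injective Q.subtype_injective, Subgroup.map_sup, map_commutator,
      map_subgroupOf_eq_of_le hVQ, map_subgroupOf_eq_of_le (hWV.trans hVQ),
      ← MonoidHom.range_eq_map, range_subtype]
    exact h
  exact fun x hx => h1 (show (⟨x, hVQ hx⟩ : Q) ∈ V.subgroupOf Q from hx)

omit [Fact p.Prime] in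
theorem spe_normalizer_sylow_le (h : IsSpeAmalgamPair p M₁ M₂) {δ μ : CosetVertex M₁ M₂}
    (hμ : (cosetGraph M₁ M₂).Adj δ μ) {T : Subgroup X}
    (hT : H68.SylowIn p T (stabilizer X δ ⊓ stabilizer X μ)) :
    stabilizer X δ ⊓ 𝐍(T) ≤ stabilizer X μ := by
  have base : ∀ T : Subgroup X, H68.SylowIn p T (M₁ ⊓ M₂) →
      M₁ ⊓ 𝐍(T) ≤ M₂ ∧ M₂ ⊓ 𝐍(T) ≤ M₁ := by
    intro T hT
    have := h.2.1 hT.toSylow
    rw [hT.map_toSylow] at this
    exact ⟨this.2.trans inf_le_right, this.1.ge.trans inf_le_left⟩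
  obtain ⟨x, ⟨rfl, rfl⟩ | ⟨rfl, rfl⟩⟩ := H68.adj_iff.mp hμ
  · rw [H68.stabilizer_smul_vl, H68.stabilizer_smul_vr] at hT ⊢
    have := hT.cj x⁻¹
    rw [← H68.cj_inf, H68.cj_inv_cj] at this
    have := H68.cj_mono x (base _ this).1
    rwa [H68.cj_inf, H68.cj_normalizer, H68.cj_cj_inv] at this
  · rw [H68.stabilizer_smul_vl, H68.stabilizer_smul_vr] at hT ⊢
    have := hT.cj x⁻¹
    rw [← H68.cj_inf, H68.cj_inv_cj, inf_comm] at this
    have := H68.cj_mono x (base _ this).2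
    rwa [H68.cj_inf, H68.cj_normalizer, H68.cj_cj_inv] at this

theorem spe_stabilizer_le (h : IsSpeAmalgamPair p M₁ M₂) {δ μ : CosetVertex M₁ M₂}
    (hμ : (cosetGraph M₁ M₂).Adj δ μ) {N : Subgroup X}
    (h1 : 𝐑(p, pElementClosure p (stabilizer X δ)) ≤ N)
    (h2 : stabilizer X δ ⊓ stabilizer X μ ≤ N) : stabilizer X δ ≤ N := by
  have := H68.amalg_finite h.1 δ
  obtain ⟨T, hT⟩ := H68.exists_sylowIn p (stabilizer X δ ⊓ stabilizer X μ)
  have hT' := H68.amalg_sylowIn h.1 hμ hT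
  intro g hg
  obtain ⟨x, hx, y, hy, rfl⟩ := H68.exists_pElementClosure_mul hT' hg
  refine mul_mem ?_ (h2 ⟨hy.1, spe_normalizer_sylow_le h hμ hT hy⟩)
  haveI : Finite (pElementClosure p (stabilizer X δ)) :=
    H68.finite_of_le (H68.pElementClosure_le _)
  rw [← res_sup_of_finite hT'.pElementClosure] at hx
  exact sup_le h1 (hT.le.trans h2) hx

theorem vertexZ_ne_bot (h : IsCharPAmalgamPair p M₁ M₂) (δ : CosetVertex M₁ M₂) :
    vertexZ p δ ≠ ⊥ := by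
  have := H68.amalg_finite h δ
  obtain ⟨T, hT⟩ := H68.exists_sylowIn p (stabilizer X δ)
  haveI : Finite T := H68.finite_of_le hT.le
  intro h0
  exact H68.oz_ne_bot hT.isPGroup (hT.ne_bot (H68.amalg_dvd_card h δ))
    (le_bot_iff.1 (h0 ▸ hT.oz_le_Z))

theorem vIter_succ_le (h : IsCharPAmalgamPair p M₁ M₂) {n : ℕ} {δ μ : CosetVertex M₁ M₂}
    (hμ : (cosetGraph M₁ M₂).Adj δ μ) {W : Subgroup X} (h1 : vertexVIter p M₁ M₂ n μ ≤ W)
    (h2 : stabilizer X δ ≤ 𝐍(W)) : vertexVIter p M₁ M₂ (n + 1) δ ≤ W := by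
  have hc := H68.IsAmalgamPair.connected' h.1
  have := H68.amalg_finite h δ
  refine vIter_le fun κ hκ => ?_
  rcases Nat.eq_zero_or_eq_succ_pred ((cosetGraph M₁ M₂).dist δ κ) with h0 | h0
  · rw [hc.dist_eq_zero_iff] at h0
    subst h0
    obtain ⟨T, hT⟩ := H68.exists_sylowIn p (stabilizer X δ ⊓ stabilizer X μ)
    refine H68.Z_le_of_le_normalizer (H68.amalg_sylowIn h hμ hT) ?_ h2
    exact (H68.amalg_sylowIn' h hμ hT).oz_le_Z.trans ((Z_le_vIter (by simp)).trans h1)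
  · obtain ⟨ν, hν, hd⟩ := H68.exists_adj_dist_succ h0
    obtain ⟨g, hg, rfl⟩ := H68.exists_stabilizer_smul_eq hμ hν
    refine (Z_le_vIter (n := n) (by omega)).trans ((vIter_smul_le n g μ).trans ?_)
    exact cj_le_of_mem_normalizer h1 (h2 hg)

end H69
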